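import Mathlib
import Cfsg.Prelude.Def_ClassicalGeometry
import Cfsg.Agent.ClassicalGeometry.SympBasic
import Cfsg.Agent.ClassicalGeometry.SympIso
import Cfsg.Agent.S0752

/-!
# The symplectic group on `N / A` (helper580)

`A ≤ N ≤ C` with `A` central in `C`, `C_C(N) ≤ A`, `N / A` elementary abelian of exponent `r`, the elements of `A` of
order dividing `r` are the powers of `w`. Then `|N / A| = r ^ (2 n)` and `C` acts on `N / A` as a subgroup of `Sp_{2n}(r)`
with kernel `N`.
-/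

set_option autoImplicit false
set_option linter.unusedSectionVars false

namespace Cfsg.Agent.H580.Kgv

open Subgroup Cfsg Cfsg.Agent.ClassicalGeometry.SympBasic

/-- the hypotheses -/
structure Dat {H : Type} [Group H] (A N C : Subgroup H) (r : ℕ) (w : H) : Prop where
  An : A.Normal
  Nn : N.Normal
  AN : A ≤ N
  NC : N ≤ C
  cen : ∀ a ∈ A, ∀ c ∈ C, a * c = c * a
  com : ∀ x ∈ N, ∀ y ∈ N, x * y * x⁻¹ * y⁻¹ ∈ A
  self : ∀ c ∈ C, (∀ n ∈ N, c * n = n * c) → c ∈ A
  ord : orderOf w = r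
  roots : ∀ z ∈ A, z ^ r = 1 → z ∈ zpowers w
  exp : ∀ x ∈ N, x ^ r ∈ A

variable {H : Type} [Group H] {A N C : Subgroup H} {r : ℕ} {w : H}

/-- `c x c⁻¹ x⁻¹` -/
def cmt (c x : H) : H := c * x * c⁻¹ * x⁻¹

theorem cmt_def (c x : H) : cmt c x = c * x * c⁻¹ * x⁻¹ := rfl

theorem cmt_mul (c x : H) : cmt c x * x = c * x * c⁻¹ := by rw [cmt_def]; group

/-- coordinates for a biadditive alternating nondegenerate form -/
theorem exists_coords {r : ℕ} [Fact r.Prime] {V : Type} [AddCommGroup V] [Module (ZMod r) V] [Finite V]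
    (b : V → V → ZMod r) (h1 : ∀ u u' v, b (u + u') v = b u v + b u' v) (h2 : ∀ u v v', b u (v + v') = b u v + b u v')
    (h3 : ∀ u, b u u = 0) (h4 : ∀ u, (∀ v, b u v = 0) → u = 0) :
    ∃ (m : ℕ) (g : V → (Fin m ⊕ Fin m → ZMod r)), (∀ x y, g (x + y) = g x + g y) ∧ Function.Surjective g ∧
      (∀ x, g x = 0 ↔ x = 0) ∧ ∀ x y, b x y = sympForm m (ZMod r) (g x) (g y) := by
  let B : LinearMap.BilinForm (ZMod r) V := LinearMap.mk₂ (ZMod r) b h1
    (fun c u v => ZMod.map_smul (AddMonoidHom.mk' (fun u => b u v) (fun u u' => h1 u u' v)) c u) h2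
    (fun c u v => ZMod.map_smul (AddMonoidHom.mk' (fun v => b u v) (fun v v' => h2 u v v')) c v)
  have hB : ∀ u v, B u v = b u v := fun u v => rfl
  have hA : B.IsAlt := h3
  have hnd : ∀ u, (∀ v, B u v = 0) → u = 0 := h4
  obtain ⟨m, l, bb, -, -, -, h5⟩ := Cfsg.Agent.S0752.result B hA
  have hl : l = 0 := by
    by_contra hl
    exact bb.ne_zero _ (hnd _ (h5 ⟨0, Nat.pos_of_ne_zero hl⟩))
  subst hl
  have hk : Module.finrank (ZMod r) V = 2 * m := by
    rw [Module.finrank_eq_card_basis bb]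
    simp [two_mul]
  obtain ⟨e, he⟩ := Cfsg.Agent.ClassicalGeometry.SympIso.exists_linearEquiv_sympForm B hA hnd hk
  refine ⟨m, fun x => e.symm x, fun x y => map_add _ _ _, e.symm.surjective, fun x => e.symm.map_eq_zero_iff,
    fun x y => ?_⟩
  rw [← he, e.apply_symm_apply, e.apply_symm_apply]
  rfl

namespace Dat

theorem comm_pow (h : Dat A N C r w) {c x : H} (hc : c ∈ C) (hx : x ∈ N) (ha : cmt c x ∈ A) :
    (cmt c x) ^ r = 1 := by
  have h2 : (cmt c x * x) ^ r = (cmt c x) ^ r * x ^ r := by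
    have : Commute (cmt c x) x := h.cen _ ha x (h.NC hx)
    exact this.mul_pow r
  have h3 : (c * x * c⁻¹) ^ r = x ^ r := by
    rw [conj_pow]
    have h4 := h.cen _ (h.exp x hx) c hc
    rw [← h4]
    group
  rw [← cmt_mul, h2] at h3
  exact mul_eq_right.1 h3

theorem cmt_mem (h : Dat A N C r w) {c x : H} (hc : c ∈ C) (hx : x ∈ N) (ha : cmt c x ∈ A) : cmt c x ∈ zpowers w :=
  h.roots _ ha (h.comm_pow hc hx ha)

theorem cmt_C (h : Dat A N C r w) {c x : H} (hx : x ∈ N) : cmt c x ∈ N :=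
  mul_mem (h.Nn.conj_mem x hx c) (inv_mem hx)

/-- multiplicativity in the second variable -/
theorem cmt_mul_right (h : Dat A N C r w) {c x y : H} (hx : x ∈ N) (ha : cmt c y ∈ A) :
    cmt c (x * y) = cmt c x * cmt c y := by
  have h1 := h.cen _ ha x (h.NC hx)
  have e : cmt c (x * y) = c * x * c⁻¹ * (cmt c y * x⁻¹) := by simp only [cmt_def]; group
  have h2 : cmt c y * x⁻¹ = x⁻¹ * cmt c y := by
    calc cmt c y * x⁻¹ = x⁻¹ * (x * cmt c y) * x⁻¹ := by group
      _ = x⁻¹ * (cmt c y * x) * x⁻¹ := by rw [h1]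
      _ = _ := by group
  rw [e, h2, cmt_def c x]
  group

/-- multiplicativity in the first variable -/
theorem cmt_mul_left (h : Dat A N C r w) {c d x : H} (hc : c ∈ C) (hx : x ∈ N) (ha : cmt d x ∈ A) :
    cmt (c * d) x = cmt c x * cmt d x := by
  have h1 := h.cen _ ha c hc
  have e : cmt (c * d) x = c * cmt d x * (x * c⁻¹ * x⁻¹) := by simp only [cmt_def]; group
  rw [e, ← h1]
  have h2 := h.cen _ ha (cmt c x) (h.NC (h.cmt_C hx))
  rw [← h2, cmt_def c x]
  group

theorem cmt_left_one (h : Dat A N C r w) {a x : H} (ha : a ∈ A) (hx : x ∈ N) : cmt a x = 1 := by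
  rw [cmt_def, h.cen a ha x (h.NC hx)]; group

theorem cmt_right_one (h : Dat A N C r w) {a c : H} (ha : a ∈ A) (hc : c ∈ C) : cmt c a = 1 := by
  rw [cmt_def, ← h.cen a ha c hc]; group

variable [hr : Fact r.Prime]

/-- the identification of the group of elements of order dividing `r` of `A` with `ZMod r` -/
noncomputable def ee (h : Dat A N C r w) : zpowers w ≃* Multiplicative (ZMod r) :=
  mulEquivOfPrimeCardEq (p := r) (by rw [Nat.card_zpowers, h.ord]) (by simp)

/-- the quotient is commutative -/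
noncomputable abbrev QQ (A N : Subgroup H) : Type := N ⧸ A.subgroupOf N

theorem normal (h : Dat A N C r w) : (A.subgroupOf N).Normal := by
  have := h.An
  infer_instance

/-- the additive group `N / A` as a vector space -/
theorem exists_coord [Finite H] (h : Dat A N C r w) : ∃ (n : ℕ) (φ : N → (Fin n ⊕ Fin n → ZMod r)),
    (∀ x y, φ (x * y) = φ x + φ y) ∧ Function.Surjective φ ∧ (∀ x : N, φ x = 0 ↔ (x : H) ∈ A) ∧
    ∀ (x y : N) (hz : cmt (x : H) y ∈ zpowers w),
      Multiplicative.toAdd (h.ee ⟨cmt (x : H) y, hz⟩) = sympForm n (ZMod r) (φ x) (φ y) := by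
  classical
  have hn := h.normal
  have hcom : ∀ a b : N ⧸ A.subgroupOf N, a * b = b * a := by
    intro a b
    induction a using QuotientGroup.induction_on with | _ x
    induction b using QuotientGroup.induction_on with | _ y
    rw [← QuotientGroup.mk_mul, ← QuotientGroup.mk_mul, QuotientGroup.eq, mem_subgroupOf]
    have h1 := h.com _ (inv_mem y.2) _ (inv_mem x.2)
    have e : ((x * y)⁻¹ * (y * x) : N) = ((y : H)⁻¹ * (x : H)⁻¹ * ((y : H)⁻¹)⁻¹ * ((x : H)⁻¹)⁻¹) := by
      simp [mul_assoc]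
    rw [e]
    exact h1
  let cg : CommGroup (N ⧸ A.subgroupOf N) :=
    { (inferInstance : Group (N ⧸ A.subgroupOf N)) with mul_comm := hcom }
  -- the pairing
  have hmemz : ∀ x y : N, cmt (x : H) y ∈ zpowers w := fun x y =>
    h.cmt_mem (h.NC x.2) y.2 (h.com x x.2 y y.2)
  let b0 : N → N → ZMod r := fun x y => Multiplicative.toAdd (h.ee ⟨cmt (x : H) y, hmemz x y⟩)
  have b0_mul_right : ∀ x y z : N, b0 x (y * z) = b0 x y + b0 x z := by
    intro x y z
    show Multiplicative.toAdd (h.ee ⟨cmt (x : H) (y * z : N), _⟩) = _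
    rw [← toAdd_mul, ← map_mul]
    congr 2
    apply Subtype.ext
    exact h.cmt_mul_right y.2 (h.com x x.2 z z.2)
  have b0_mul_left : ∀ x y z : N, b0 (x * y) z = b0 x z + b0 y z := by
    intro x y z
    show Multiplicative.toAdd (h.ee ⟨cmt ((x * y : N) : H) z, _⟩) = _
    rw [← toAdd_mul, ← map_mul]
    congr 2
    apply Subtype.ext
    exact h.cmt_mul_left (h.NC x.2) z.2 (h.com y y.2 z z.2)
  have b0_left : ∀ x y : N, (x : H) ∈ A → b0 x y = 0 := by
    intro x y hx
    show Multiplicative.toAdd (h.ee ⟨cmt (x : H) y, _⟩) = 0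
    rw [toAdd_eq_zero, EmbeddingLike.map_eq_one_iff]
    exact Subtype.ext (h.cmt_left_one hx y.2)
  have b0_right : ∀ x y : N, (y : H) ∈ A → b0 x y = 0 := by
    intro x y hy
    show Multiplicative.toAdd (h.ee ⟨cmt (x : H) y, _⟩) = 0
    rw [toAdd_eq_zero, EmbeddingLike.map_eq_one_iff]
    exact Subtype.ext (h.cmt_right_one hy (h.NC x.2))
  have b0_congr : ∀ x x' y y' : N, (QuotientGroup.mk x : N ⧸ A.subgroupOf N) = QuotientGroup.mk x' →
      (QuotientGroup.mk y : N ⧸ A.subgroupOf N) = QuotientGroup.mk y' → b0 x y = b0 x' y' := by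
    intro x x' y y' h1 h2
    rw [QuotientGroup.eq, mem_subgroupOf] at h1 h2
    have e1 : x' = x * (x⁻¹ * x') := by group
    have e2 : y' = y * (y⁻¹ * y') := by group
    have g1 : b0 x' y' = b0 x y' := by
      conv_lhs => rw [e1]
      rw [b0_mul_left, b0_left _ _ h1, add_zero]
    have g2 : b0 x y' = b0 x y := by
      conv_lhs => rw [e2]
      rw [b0_mul_right, b0_right _ _ h2, add_zero]
    rw [g1, g2]
  let V := Additive (N ⧸ A.subgroupOf N)
  let md : Module (ZMod r) V := AddCommGroup.zmodModule (n := r) (by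
    intro v
    obtain ⟨x, hx⟩ := QuotientGroup.mk_surjective (s := A.subgroupOf N) v.toMul
    apply Additive.toMul.injective
    show v.toMul ^ r = 1
    rw [← hx, ← QuotientGroup.mk_pow, QuotientGroup.eq_one_iff, mem_subgroupOf]
    exact h.exp x x.2)
  have hfinV : Finite V := by
    show Finite (N ⧸ A.subgroupOf N)
    infer_instance
  let mk : N → V := fun x => Additive.ofMul (QuotientGroup.mk x)
  have mk_mul : ∀ x y, mk (x * y) = mk x + mk y := fun x y => rfl
  have mk_surj : Function.Surjective mk := fun v => by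
    obtain ⟨x, hx⟩ := QuotientGroup.mk_surjective (s := A.subgroupOf N) v.toMul
    exact ⟨x, congrArg Additive.ofMul hx⟩
  have mk_zero : ∀ x, mk x = 0 ↔ (x : H) ∈ A := by
    intro x
    show (QuotientGroup.mk x : N ⧸ A.subgroupOf N) = 1 ↔ _
    rw [QuotientGroup.eq_one_iff, mem_subgroupOf]
  choose s hs using mk_surj
  let b : V → V → ZMod r := fun u v => b0 (s u) (s v)
  have b_mk : ∀ x y : N, b (mk x) (mk y) = b0 x y := by
    intro x y
    exact b0_congr _ _ _ _ (hs (mk x)) (hs (mk y))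
  have b_add_left : ∀ u u' v, b (u + u') v = b u v + b u' v := by
    intro u u' v
    obtain ⟨x, rfl⟩ : ∃ x, mk x = u := ⟨_, hs u⟩
    obtain ⟨x', rfl⟩ : ∃ x, mk x = u' := ⟨_, hs u'⟩
    obtain ⟨y, rfl⟩ : ∃ x, mk x = v := ⟨_, hs v⟩
    rw [← mk_mul, b_mk, b_mk, b_mk, b0_mul_left]
  have b_add_right : ∀ u v v', b u (v + v') = b u v + b u v' := by
    intro u v v'
    obtain ⟨x, rfl⟩ : ∃ x, mk x = u := ⟨_, hs u⟩
    obtain ⟨y, rfl⟩ : ∃ x, mk x = v := ⟨_, hs v⟩
    obtain ⟨y', rfl⟩ : ∃ x, mk x = v' := ⟨_, hs v'⟩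
    rw [← mk_mul, b_mk, b_mk, b_mk, b0_mul_right]
  have hA : ∀ u, b u u = 0 := by
    intro u
    obtain ⟨x, rfl⟩ : ∃ x, mk x = u := ⟨_, hs u⟩
    rw [b_mk]
    show Multiplicative.toAdd (h.ee ⟨cmt (x : H) x, _⟩) = 0
    rw [toAdd_eq_zero, EmbeddingLike.map_eq_one_iff]
    apply Subtype.ext
    show cmt (x : H) x = 1
    rw [cmt_def]
    group
  have hnd : ∀ u, (∀ v, b u v = 0) → u = 0 := by
    intro u hu
    obtain ⟨x, rfl⟩ : ∃ x, mk x = u := ⟨_, hs u⟩
    rw [mk_zero]
    refine h.self _ (h.NC x.2) fun y hy => ?_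
    have h1 := hu (mk ⟨y, hy⟩)
    rw [b_mk] at h1
    have h2 : h.ee ⟨cmt (x : H) y, hmemz x ⟨y, hy⟩⟩ = 1 := by
      rw [← toAdd_eq_zero]
      exact h1
    rw [EmbeddingLike.map_eq_one_iff] at h2
    have h3 : cmt (x : H) y = 1 := congrArg Subtype.val h2
    rw [cmt_def] at h3
    calc (x : H) * y = ((x : H) * y * (x : H)⁻¹ * y⁻¹) * (y * (x : H)) := by group
      _ = y * x := by rw [h3, one_mul]
  obtain ⟨m, g, g1, g2, g3, g4⟩ := exists_coords b b_add_left b_add_right hA hnd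
  refine ⟨m, fun x => g (mk x), ?_, ?_, ?_, ?_⟩
  · intro x y
    show g (mk (x * y)) = _
    rw [mk_mul, g1]
  · intro v
    obtain ⟨u, hu⟩ := g2 v
    exact ⟨s u, by
      show g (mk (s u)) = v
      rw [show mk (s u) = u from hs u, hu]⟩
  · intro x
    rw [← mk_zero]
    exact g3 _
  · intro x y hz
    rw [← g4, b_mk]

/-- conjugation -/
def cj (h : Dat A N C r w) (c : H) (x : N) : N := ⟨c * x * c⁻¹, h.Nn.conj_mem x x.2 c⟩

theorem cj_mul (h : Dat A N C r w) (c : H) (x y : N) : h.cj c (x * y) = h.cj c x * h.cj c y := by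
  apply Subtype.ext
  show c * (x * y : H) * c⁻¹ = c * x * c⁻¹ * (c * y * c⁻¹)
  group

theorem cj_cj (h : Dat A N C r w) (c d : H) (x : N) : h.cj c (h.cj d x) = h.cj (c * d) x := by
  apply Subtype.ext
  show c * (d * x * d⁻¹) * c⁻¹ = c * d * x * (c * d)⁻¹
  group

/-- **The action.** -/
theorem exists_theta [Finite H] (h : Dat A N C r w) : ∃ n : ℕ, A.relIndex N = r ^ (2 * n) ∧
    ∃ (φ : N → (Fin n ⊕ Fin n → ZMod r)) (θ : C →* Matrix.symplecticGroup (Fin n) (ZMod r)),
      (∀ x y, φ (x * y) = φ x + φ y) ∧ Function.Surjective φ ∧ (∀ x : N, φ x = 0 ↔ (x : H) ∈ A) ∧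
      (∀ (c : C) (x : N), φ (h.cj c x) = ((θ c : Matrix.symplecticGroup (Fin n) (ZMod r)) :
        Matrix (Fin n ⊕ Fin n) (Fin n ⊕ Fin n) (ZMod r)).mulVec (φ x)) ∧
      (∀ c : C, θ c = 1 ↔ (c : H) ∈ N) := by
  classical
  obtain ⟨n, φ, h1, h2, h3, h4⟩ := h.exists_coord
  have φ_one : φ 1 = 0 := (h3 1).2 (one_mem _)
  have φ_inv : ∀ x, φ x⁻¹ = - φ x := by
    intro x
    rw [eq_neg_iff_add_eq_zero, ← h1, inv_mul_cancel, φ_one]
  have φ_eq : ∀ x y, φ x = φ y ↔ ((x⁻¹ * y : N) : H) ∈ A := by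
    intro x y
    rw [← h3, h1, φ_inv]
    constructor
    · intro e
      rw [e, neg_add_cancel]
    · intro e
      rw [neg_add_eq_zero] at e
      exact e
  refine ⟨n, ?_, ?_⟩
  · have e : (N ⧸ A.subgroupOf N) ≃ (Fin n ⊕ Fin n → ZMod r) := by
      refine Equiv.ofBijective (Quotient.lift φ fun x y hxy => ?_) ⟨?_, ?_⟩
      · rw [φ_eq]
        exact mem_subgroupOf.1 (QuotientGroup.leftRel_apply.1 hxy)
      · intro a b
        induction a using Quotient.inductionOn with | _ x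
        induction b using Quotient.inductionOn with | _ y
        intro hab
        apply Quotient.sound
        exact QuotientGroup.leftRel_apply.2 ((φ_eq x y).1 hab)
      · intro v
        obtain ⟨x, hx⟩ := h2 v
        exact ⟨Quotient.mk _ x, hx⟩
    show (A.subgroupOf N).index = _
    rw [Subgroup.index, Nat.card_congr e, Nat.card_fun]
    simp [two_mul]
  -- the matrices
  choose s hs using h2
  have hcong : ∀ (c : H) (x y : N), φ x = φ y → φ (h.cj c x) = φ (h.cj c y) := by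
    intro c x y hxy
    rw [φ_eq] at hxy ⊢
    have h5 := h.An.conj_mem _ hxy c
    have e : (((h.cj c x)⁻¹ * h.cj c y : N) : H) = c * ((x⁻¹ * y : N) : H) * c⁻¹ := by
      show (c * (x : H) * c⁻¹)⁻¹ * (c * (y : H) * c⁻¹) = c * ((x : H)⁻¹ * y) * c⁻¹
      group
    rw [e]
    exact h5
  let L : H → ((Fin n ⊕ Fin n → ZMod r) →ₗ[ZMod r] (Fin n ⊕ Fin n → ZMod r)) := fun c =>
    AddMonoidHom.toZModLinearMap r (AddMonoidHom.mk' (fun v => φ (h.cj c (s v))) (by
      intro u v
      rw [← h1, ← h.cj_mul]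
      apply hcong
      rw [hs, h1, hs, hs]))
  have hL : ∀ c x, φ (h.cj c x) = L c (φ x) := by
    intro c x
    show _ = φ (h.cj c (s (φ x)))
    apply hcong
    rw [hs]
  have hLs : ∀ c d, L (c * d) = L c ∘ₗ L d := by
    intro c d
    apply LinearMap.ext
    intro v
    rw [← hs v, LinearMap.comp_apply, ← hL, ← hL, ← hL, h.cj_cj]
  have hform : ∀ c ∈ C, ∀ u v, sympForm n (ZMod r) (L c u) (L c v) = sympForm n (ZMod r) u v := by
    intro c hc u v
    rw [← hs u, ← hs v, ← hL, ← hL]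
    have m1 : cmt (s u : H) (s v) ∈ zpowers w := h.cmt_mem (h.NC (s u).2) (s v).2 (h.com _ (s u).2 _ (s v).2)
    have e : cmt (h.cj c (s u) : H) (h.cj c (s v)) = cmt (s u : H) (s v) := by
      have e1 : cmt (h.cj c (s u) : H) (h.cj c (s v)) = c * cmt (s u : H) (s v) * c⁻¹ := by
        show cmt (c * (s u : H) * c⁻¹) (c * (s v : H) * c⁻¹) = _
        simp only [cmt_def]
        group
      have e2 : cmt (s u : H) (s v) * c = c * cmt (s u : H) (s v) :=
        h.cen _ (h.com _ (s u).2 _ (s v).2) c hc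
      rw [e1, ← e2]
      group
    rw [← h4 _ _ m1, ← h4 _ _ (by rw [e]; exact m1)]
    congr 3
  let θ : C →* Matrix.symplecticGroup (Fin n) (ZMod r) := MonoidHom.mk'
    (fun c => ⟨LinearMap.toMatrix' (L c), by
      rw [mem_symplecticGroup_iff]
      intro u v
      rw [LinearMap.toMatrix'_mulVec, LinearMap.toMatrix'_mulVec]
      exact hform c c.2 u v⟩) (by
    intro c d
    apply Subtype.ext
    show LinearMap.toMatrix' (L ((c : H) * d)) = LinearMap.toMatrix' (L c) * LinearMap.toMatrix' (L d)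
    rw [hLs, LinearMap.toMatrix'_comp])
  have hθ : ∀ (c : C) (x : N), φ (h.cj c x) = ((θ c : Matrix.symplecticGroup (Fin n) (ZMod r)) :
        Matrix (Fin n ⊕ Fin n) (Fin n ⊕ Fin n) (ZMod r)).mulVec (φ x) := by
    intro c x
    show _ = (LinearMap.toMatrix' (L c)).mulVec (φ x)
    rw [LinearMap.toMatrix'_mulVec, hL]
  refine ⟨φ, θ, h1, fun v => ⟨s v, hs v⟩, h3, hθ, ?_⟩
  intro c
  constructor
  · intro hc
    -- `c` acts trivially on `N / A`
    have h5 : ∀ x : N, cmt (c : H) x ∈ A := by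
      intro x
      have h6 := hθ c x
      rw [hc] at h6
      have h7 : φ (h.cj c x) = φ x := by
        rw [h6]
        show (1 : Matrix (Fin n ⊕ Fin n) (Fin n ⊕ Fin n) (ZMod r)).mulVec (φ x) = φ x
        rw [Matrix.one_mulVec]
      have h8 := (φ_eq _ _).1 h7.symm
      have h9 := h.An.conj_mem _ h8 x
      have e : (x : H) * (((x⁻¹ * h.cj c x : N)) : H) * (x : H)⁻¹ = cmt (c : H) x := by
        show (x : H) * ((x : H)⁻¹ * ((c : H) * x * (c : H)⁻¹)) * (x : H)⁻¹ = _
        rw [cmt_def]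
        group
      rw [← e]
      exact h9
    have h6 : ∀ x : N, cmt (c : H) x ∈ zpowers w := fun x => h.cmt_mem c.2 x.2 (h5 x)
    -- the linear form
    let f : (Fin n ⊕ Fin n → ZMod r) →ₗ[ZMod r] ZMod r := AddMonoidHom.toZModLinearMap r
      (AddMonoidHom.mk' (fun v => Multiplicative.toAdd (h.ee ⟨cmt (c : H) (s v), h6 _⟩)) (by
        intro u v
        rw [← toAdd_mul, ← map_mul]
        congr 2
        apply Subtype.ext
        show cmt (c : H) (s (u + v)) = cmt (c : H) (s u) * cmt (c : H) (s v)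
        rw [← h.cmt_mul_right (s u).2 (h5 (s v))]
        have h7 : φ (s u * s v) = φ (s (u + v)) := by rw [h1, hs, hs, hs]
        rw [φ_eq] at h7
        have e : (s (u + v) : H) = (s u * s v : H) * (((s u * s v)⁻¹ * s (u + v) : N) : H) := by
          show (s (u + v) : H) = (s u * s v : H) * ((s u * s v : H)⁻¹ * s (u + v))
          group
        rw [e, h.cmt_mul_right (mul_mem (s u).2 (s v).2) (by rw [h.cmt_right_one h7 c.2]; exact one_mem _),
          h.cmt_right_one h7 c.2, mul_one]))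
    have hf : ∀ x : N, f (φ x) = Multiplicative.toAdd (h.ee ⟨cmt (c : H) x, h6 _⟩) := by
      intro x
      show Multiplicative.toAdd (h.ee ⟨cmt (c : H) (s (φ x)), h6 _⟩) = _
      congr 3
      have h7 : φ x = φ (s (φ x)) := by rw [hs]
      rw [φ_eq] at h7
      have e : (s (φ x) : H) = (x : H) * ((x⁻¹ * s (φ x) : N) : H) := by
        show (s (φ x) : H) = (x : H) * ((x : H)⁻¹ * s (φ x))
        group
      rw [e, h.cmt_mul_right x.2 (by rw [h.cmt_right_one h7 c.2]; exact one_mem _), h.cmt_right_one h7 c.2, mul_one]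
    obtain ⟨m, hm⟩ : ∃ u, ∀ v, f v = sympForm n (ZMod r) u v := by
      let T : (Fin n ⊕ Fin n → ZMod r) →ₗ[ZMod r] Module.Dual (ZMod r) (Fin n ⊕ Fin n → ZMod r) := sympBilin n (ZMod r)
      have hT : Function.Injective T := by
        rw [injective_iff_map_eq_zero]
        intro u hu
        refine eq_zero_of_forall_sympForm_right (v := u) fun v => ?_
        exact LinearMap.congr_fun hu v
      have hT2 : Function.Surjective T :=
        (LinearMap.injective_iff_surjective_of_finrank_eq_finrank (Subspace.dual_finrank_eq).symm).1 hT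
      obtain ⟨u, hu⟩ := hT2 f
      exact ⟨u, fun v => (LinearMap.congr_fun hu v).symm⟩
    -- `c` and `s m` act in the same way
    have h7 : ∀ x : N, cmt (c : H) x = cmt (s m : H) x := by
      intro x
      have m1 : cmt (s m : H) x ∈ zpowers w := h.cmt_mem (h.NC (s m).2) x.2 (h.com _ (s m).2 _ x.2)
      have h8 := h4 (s m) x m1
      rw [hs, ← hm, hf] at h8
      have h9 := h.ee.injective (Multiplicative.toAdd.injective h8)
      exact (congrArg Subtype.val h9).symm
    have h8 : (s m : H)⁻¹ * c ∈ A := by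
      refine h.self _ (mul_mem (inv_mem (h.NC (s m).2)) c.2) fun x hx => ?_
      have h9 := h7 ⟨x, hx⟩
      rw [cmt_def, cmt_def] at h9
      have h10 : (c : H) * x * (c : H)⁻¹ = s m * x * (s m : H)⁻¹ := mul_right_cancel h9
      calc (s m : H)⁻¹ * c * x = (s m : H)⁻¹ * (c * x * (c : H)⁻¹) * c := by group
        _ = (s m : H)⁻¹ * (s m * x * (s m : H)⁻¹) * c := by rw [h10]
        _ = x * ((s m : H)⁻¹ * c) := by group
    have h9 := mul_mem (s m).2 (h.AN h8)
    rwa [mul_inv_cancel_left] at h9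
  · intro hc
    apply Subtype.ext
    apply Matrix.mulVec_injective
    funext v
    rw [← hs v, ← hθ]
    show _ = (1 : Matrix (Fin n ⊕ Fin n) (Fin n ⊕ Fin n) (ZMod r)).mulVec _
    rw [Matrix.one_mulVec, φ_eq]
    have h5 := h.com _ hc _ (inv_mem (s v).2)
    have e : (((h.cj c (s v))⁻¹ * s v : N) : H) = c * (s v : H)⁻¹ * (c : H)⁻¹ * ((s v : H)⁻¹)⁻¹ := by
      show ((c : H) * (s v : H) * (c : H)⁻¹)⁻¹ * (s v : H) = _
      group
    rw [e]
    exact h5

end Dat

end Cfsg.Agent.H580.Kgv
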