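import Cfsg.Agent.H960.KGV.Core
import Cfsg.Agent.H580.Kgv.Symp
import Cfsg.Agent.PLocal.SubnormalCore
import Cfsg.Agent.Lib.Cores

/-!
# `core_indep`, `core_ext` (team KGV, task 2295, helper580)
-/

set_option autoImplicit false
set_option linter.unusedSectionVars false

namespace Cfsg.Agent.H580.Kgv

open Subgroup Cfsg Cfsg.Agent.H960.KGV

variable {H : Type} [Group H] {A N C : Subgroup H} {p f a : ℕ} {F : Type} [Field F] {ψ : C →* GL (Fin a) F}

section Basic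

theorem coe_mul (x y : C) : ((ψ (x * y) : GL (Fin a) F) : Matrix (Fin a) (Fin a) F) = ψ x * ψ y := by
  rw [map_mul, Units.val_mul]

theorem core_cen (h : Core A N C p f a ψ) : ∀ z ∈ A, ∀ c ∈ C, z * c = c * z := by
  intro z hz c hc
  obtain ⟨s, hs⟩ := (h.scal ⟨z, h.NC (h.AN hz)⟩).1 hz
  have h1 : (⟨z, h.NC (h.AN hz)⟩ * ⟨c, hc⟩ : C) = ⟨c, hc⟩ * ⟨z, h.NC (h.AN hz)⟩ := by
    apply h.inj
    apply Units.ext
    rw [coe_mul, coe_mul, hs]
    simp
  exact congrArg Subtype.val h1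

theorem core_self (h : Core A N C p f a ψ) : ∀ c ∈ C, (∀ n ∈ N, c * n = n * c) → c ∈ A := by
  intro c hc hn
  refine (h.scal ⟨c, hc⟩).2 (h.abs _ fun d hd => ?_)
  rw [← coe_mul, ← coe_mul]
  congr 2
  exact Subtype.ext (hn d hd)

theorem core_exists_comm (h : Core A N C p f a ψ) : ∃ x ∈ N, ∃ y ∈ N, x * y * x⁻¹ * y⁻¹ ≠ 1 := by
  by_contra hcon
  push Not at hcon
  apply h.ne
  apply le_antisymm h.AN
  intro x hx
  refine core_self h x (h.NC hx) fun n hn => ?_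
  have := hcon x hx n hn
  calc x * n = (x * n * x⁻¹ * n⁻¹) * (n * x) := by group
    _ = n * x := by rw [this, one_mul]

/-- the scalar of an element of `A` -/
noncomputable def sc (h : Core A N C p f a ψ) : A →* F where
  toFun z := (ψ ⟨z, h.NC (h.AN z.2)⟩ : Matrix (Fin a) (Fin a) F) ⟨0, by have := h.two_le; omega⟩
    ⟨0, by have := h.two_le; omega⟩
  map_one' := by
    show (ψ (1 : C) : Matrix (Fin a) (Fin a) F) _ _ = 1
    rw [map_one]
    simp
  map_mul' x y := by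
    obtain ⟨s, hs⟩ := (h.scal ⟨x, h.NC (h.AN x.2)⟩).1 x.2
    obtain ⟨t, ht⟩ := (h.scal ⟨y, h.NC (h.AN y.2)⟩).1 y.2
    have e : (⟨(x * y : A), h.NC (h.AN (x * y).2)⟩ : C) = ⟨x, h.NC (h.AN x.2)⟩ * ⟨y, h.NC (h.AN y.2)⟩ := rfl
    rw [e, coe_mul, hs, ht]
    simp [mul_comm]

theorem sc_spec (h : Core A N C p f a ψ) (z : A) :
    (ψ ⟨z, h.NC (h.AN z.2)⟩ : Matrix (Fin a) (Fin a) F) = sc h z • (1 : Matrix (Fin a) (Fin a) F) := by
  obtain ⟨s, hs⟩ := (h.scal ⟨z, h.NC (h.AN z.2)⟩).1 z.2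
  have : sc h z = s := by
    show (ψ ⟨z, h.NC (h.AN z.2)⟩ : Matrix (Fin a) (Fin a) F) _ _ = s
    rw [hs]
    simp
  rw [this, hs]

theorem sc_inj (h : Core A N C p f a ψ) : Function.Injective (sc h) := by
  intro x y hxy
  have h1 := sc_spec h x
  rw [hxy, ← sc_spec h y] at h1
  have h2 := h.inj (Units.ext h1)
  exact Subtype.ext (congrArg (fun c : C => (c : H)) h2)

end Basic

/-- commutators as characters -/
noncomputable def chi (h : Core A N C p f a ψ) (hab : ∀ x ∈ N, ∀ y ∈ N, x * y * x⁻¹ * y⁻¹ ∈ A) (n : N) : N →* F where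
  toFun x := sc h ⟨x * n * (x : H)⁻¹ * (n : H)⁻¹, hab x x.2 n n.2⟩
  map_one' := by
    have e : (⟨((1 : N) : H) * n * ((1 : N) : H)⁻¹ * (n : H)⁻¹, hab _ (1 : N).2 n n.2⟩ : A) = 1 := by
      apply Subtype.ext
      show ((1 : H)) * n * (1 : H)⁻¹ * (n : H)⁻¹ = 1
      group
    rw [e, map_one]
  map_mul' x y := by
    rw [← map_mul]
    congr 1
    apply Subtype.ext
    show (x * y : H) * n * (x * y : H)⁻¹ * (n : H)⁻¹ = (x * n * (x : H)⁻¹ * (n : H)⁻¹) * (y * n * (y : H)⁻¹ * (n : H)⁻¹)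
    have h1 := core_cen h _ (hab y y.2 n n.2) x (h.NC x.2)
    have h2 := core_cen h _ (hab y y.2 n n.2) _ (h.NC (h.AN (hab x x.2 n n.2)))
    rw [← h2]
    calc (x * y : H) * n * (x * y : H)⁻¹ * (n : H)⁻¹
        = x * (y * n * (y : H)⁻¹ * (n : H)⁻¹) * (n * (x : H)⁻¹ * (n : H)⁻¹) := by group
      _ = (y * n * (y : H)⁻¹ * (n : H)⁻¹) * x * (n * (x : H)⁻¹ * (n : H)⁻¹) := by rw [h1]
      _ = _ := by group

theorem chi_spec (h : Core A N C p f a ψ) (hab : ∀ x ∈ N, ∀ y ∈ N, x * y * x⁻¹ * y⁻¹ ∈ A) (n x : N) :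
    (ψ ⟨x, h.NC x.2⟩ : Matrix (Fin a) (Fin a) F) * ψ ⟨n, h.NC n.2⟩ =
      chi h hab n x • ((ψ ⟨n, h.NC n.2⟩ : Matrix (Fin a) (Fin a) F) * ψ ⟨x, h.NC x.2⟩) := by
  have h1 := sc_spec h ⟨x * n * (x : H)⁻¹ * (n : H)⁻¹, hab x x.2 n n.2⟩
  have e : (⟨x, h.NC x.2⟩ * ⟨n, h.NC n.2⟩ : C) =
      ⟨x * n * (x : H)⁻¹ * (n : H)⁻¹, h.NC (h.AN (hab x x.2 n n.2))⟩ * (⟨n, h.NC n.2⟩ * ⟨x, h.NC x.2⟩) := by
    apply Subtype.ext
    show (x : H) * n = x * n * (x : H)⁻¹ * (n : H)⁻¹ * (n * x)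
    group
  rw [← coe_mul, e, coe_mul, coe_mul, h1]
  simp only [Matrix.smul_mul, Matrix.one_mul]
  rfl

theorem core_indep (h : Core A N C p f a ψ) (hab : ∀ x ∈ N, ∀ y ∈ N, x * y * x⁻¹ * y⁻¹ ∈ A) :
    A.relIndex N ≤ a ^ 2 := by
  classical
  have hfin := h.fin
  have : Finite (N ⧸ A.subgroupOf N) := inferInstance
  have : Fintype (N ⧸ A.subgroupOf N) := Fintype.ofFinite _
  let M : (N ⧸ A.subgroupOf N) → Matrix (Fin a) (Fin a) F := fun q => ψ ⟨q.out, h.NC q.out.2⟩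
  have hchi : Function.Injective fun q : N ⧸ A.subgroupOf N => chi h hab q.out := by
    intro q q' hqq
    have h1 : ∀ x ∈ N, ((q.out : H)⁻¹ * q'.out) * x = x * ((q.out : H)⁻¹ * q'.out) := by
      intro x hx
      have h2 : chi h hab q.out ⟨x, hx⟩ = chi h hab q'.out ⟨x, hx⟩ := by
        have := DFunLike.congr_fun hqq ⟨x, hx⟩
        exact this
      have h3 := congrArg Subtype.val (sc_inj h h2)
      change x * q.out * x⁻¹ * (q.out : H)⁻¹ = x * q'.out * x⁻¹ * (q'.out : H)⁻¹ at h3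
      -- `[x, n] = [x, n']`
      have h4 : (q.out : H) * x⁻¹ * (q.out : H)⁻¹ = q'.out * x⁻¹ * (q'.out : H)⁻¹ := by
        have h5 := congrArg (fun z => x⁻¹ * z) h3
        simpa [mul_assoc] using h5
      have h5 : ((q.out : H)⁻¹ * q'.out) * x⁻¹ = x⁻¹ * ((q.out : H)⁻¹ * q'.out) := by
        calc ((q.out : H)⁻¹ * q'.out) * x⁻¹ = (q.out : H)⁻¹ * (q'.out * x⁻¹ * (q'.out : H)⁻¹) * q'.out := by group
          _ = (q.out : H)⁻¹ * (q.out * x⁻¹ * (q.out : H)⁻¹) * q'.out := by rw [h4]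
          _ = _ := by group
      calc ((q.out : H)⁻¹ * q'.out) * x = x * (x⁻¹ * ((q.out : H)⁻¹ * q'.out)) * x := by group
        _ = x * (((q.out : H)⁻¹ * q'.out) * x⁻¹) * x := by rw [h5]
        _ = _ := by group
    have h2 := core_self h _ (h.NC (mul_mem (inv_mem q.out.2) q'.out.2)) h1
    rw [← QuotientGroup.out_eq' q, ← QuotientGroup.out_eq' q', QuotientGroup.eq, mem_subgroupOf]
    exact h2
  have hli : LinearIndependent F M := by
    rw [linearIndependent_iff']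
    intro s g hg i hi
    by_contra hgi
    have hne : M i ≠ 0 := by
      intro h0
      have h1 : (M i) * ((ψ ⟨i.out, h.NC i.out.2⟩)⁻¹ : GL (Fin a) F) = 1 := by
        show ((ψ ⟨i.out, h.NC i.out.2⟩ : GL (Fin a) F) : Matrix (Fin a) (Fin a) F) * _ = 1
        rw [← Units.val_mul, mul_inv_cancel, Units.val_one]
      rw [h0, Matrix.zero_mul] at h1
      have h2 := congrFun (congrFun h1 ⟨0, by have := h.two_le; omega⟩) ⟨0, by have := h.two_le; omega⟩
      simp at h2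
    obtain ⟨j, k, hjk⟩ : ∃ j k, M i j k ≠ 0 := by
      by_contra hcon
      push Not at hcon
      exact hne (Matrix.ext fun j k => hcon j k)
    have hind := linearIndependent_monoidHom N F
    have hind2 : LinearIndependent F (fun q : N ⧸ A.subgroupOf N => ((chi h hab q.out : N →* F) : N → F)) :=
      hind.comp _ hchi
    rw [linearIndependent_iff'] at hind2
    have h3 := hind2 s (fun q => g q * M q j k) (by
      funext x
      -- conjugate the relation by `x`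
      have h4 : (∑ q ∈ s, g q • (chi h hab q.out x • M q)) = 0 := by
        have h5 : (ψ ⟨x, h.NC x.2⟩ : Matrix (Fin a) (Fin a) F) * (∑ q ∈ s, g q • M q) *
            ((ψ ⟨x, h.NC x.2⟩)⁻¹ : GL (Fin a) F) = 0 := by
          rw [hg, Matrix.mul_zero, Matrix.zero_mul]
        rw [Matrix.mul_sum, Matrix.sum_mul] at h5
        rw [← h5]
        refine Finset.sum_congr rfl fun q _ => ?_
        rw [Matrix.mul_smul, Matrix.smul_mul]
        congr 1
        show _ = (ψ ⟨x, h.NC x.2⟩ : Matrix (Fin a) (Fin a) F) * ψ ⟨q.out, h.NC q.out.2⟩ * _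
        rw [chi_spec h hab, Matrix.smul_mul, Matrix.mul_assoc, ← Units.val_mul, mul_inv_cancel, Units.val_one,
          Matrix.mul_one]
      have h6 := congrFun (congrFun h4 j) k
      rw [Finset.sum_apply]
      rw [Matrix.sum_apply] at h6
      simp only [Matrix.smul_apply, smul_eq_mul, Matrix.zero_apply] at h6
      simp only [Pi.smul_apply, smul_eq_mul, Pi.zero_apply]
      rw [← h6]
      refine Finset.sum_congr rfl fun q _ => ?_
      ring) i hi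
    exact (mul_ne_zero hgi hjk) h3
  have h1 := hli.fintype_card_le_finrank
  rw [Module.finrank_matrix, Module.finrank_self, Fintype.card_fin] at h1
  show (A.subgroupOf N).index ≤ _
  rw [Subgroup.index, Nat.card_eq_fintype_card, sq]
  simpa using h1

/-- the extraspecial situation -/
theorem core_dat (h : Core A N C p f a ψ) (hab : ∀ x ∈ N, ∀ y ∈ N, x * y * x⁻¹ * y⁻¹ ∈ A) :
    ∃ (r : ℕ) (w : H), r.Prime ∧ w ∈ A ∧ Dat A N C r w ∧ r ∣ p ^ f - 1 := by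
  classical
  have hfin := h.fin
  have hAn := h.An
  have hidx : A.relIndex N ≠ 1 := by
    intro h1
    rw [Subgroup.relIndex_eq_one] at h1
    exact h.ne (le_antisymm h.AN h1)
  obtain ⟨r, hr, hrd⟩ := Nat.exists_prime_and_dvd hidx
  have hrf : Fact r.Prime := ⟨hr⟩
  -- all `r`-th powers are in `A`
  have hnorm : (A.subgroupOf N).Normal := inferInstance
  have hpow : ∀ x ∈ N, ∀ y ∈ N, ((x * y) ^ r)⁻¹ * (x ^ r * y ^ r) ∈ A := by
    intro x hx y hy
    rw [← QuotientGroup.eq]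
    have hc : Commute (QuotientGroup.mk x : H ⧸ A) (QuotientGroup.mk y) := by
      show (QuotientGroup.mk x : H ⧸ A) * QuotientGroup.mk y = QuotientGroup.mk y * QuotientGroup.mk x
      rw [← QuotientGroup.mk_mul, ← QuotientGroup.mk_mul, QuotientGroup.eq]
      have h1 := hab _ (inv_mem hy) _ (inv_mem hx)
      have e : (x * y)⁻¹ * (y * x) = y⁻¹ * x⁻¹ * y⁻¹⁻¹ * x⁻¹⁻¹ := by group
      rw [e]
      exact h1
    rw [QuotientGroup.mk_pow, QuotientGroup.mk_mul, hc.mul_pow, QuotientGroup.mk_mul, QuotientGroup.mk_pow,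
      QuotientGroup.mk_pow]
  let M : Subgroup H :=
    { carrier := {x | x ∈ N ∧ x ^ r ∈ A}
      one_mem' := ⟨one_mem _, by rw [one_pow]; exact one_mem _⟩
      mul_mem' := by
        rintro x y ⟨hx, hx2⟩ ⟨hy, hy2⟩
        refine ⟨mul_mem hx hy, ?_⟩
        have h1 := mul_mem (mul_mem hx2 hy2) (inv_mem (hpow x hx y hy))
        have e : x ^ r * y ^ r * (((x * y) ^ r)⁻¹ * (x ^ r * y ^ r))⁻¹ = (x * y) ^ r := by group
        rwa [e] at h1
      inv_mem' := by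
        rintro x ⟨hx, hx2⟩
        exact ⟨inv_mem hx, by rw [inv_pow]; exact inv_mem hx2⟩ }
  have hMn : M.Normal := ⟨by
    rintro x ⟨hx, hx2⟩ g
    refine ⟨h.Nn.conj_mem x hx g, ?_⟩
    rw [conj_pow]
    exact h.An.conj_mem _ hx2 g⟩
  have hMA : M ≠ A := by
    intro hcon
    obtain ⟨q, hq⟩ := exists_prime_orderOf_dvd_card' (G := N ⧸ A.subgroupOf N) r hrd
    obtain ⟨x, rfl⟩ := QuotientGroup.mk_surjective q
    have h1 : (x : H) ∈ M := by
      refine ⟨x.2, ?_⟩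
      have h2 := pow_orderOf_eq_one (QuotientGroup.mk x : N ⧸ A.subgroupOf N)
      rw [hq, ← QuotientGroup.mk_pow, QuotientGroup.eq_one_iff, mem_subgroupOf] at h2
      exact h2
    rw [hcon] at h1
    have h2 : (QuotientGroup.mk x : N ⧸ A.subgroupOf N) = 1 := by
      rw [QuotientGroup.eq_one_iff, mem_subgroupOf]
      exact h1
    rw [h2, orderOf_one] at hq
    exact hr.one_lt.ne hq
  have hMN : M = N := (h.min M hMn (fun x hx => ⟨h.AN hx, pow_mem hx r⟩) (fun x hx => hx.1)).resolve_left hMA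
  have hexp : ∀ x ∈ N, x ^ r ∈ A := fun x hx => by
    rw [← hMN] at hx
    exact hx.2
  obtain ⟨x, hx, y, hy, hxy⟩ := core_exists_comm h
  -- `w = [x, y]` has order `r`
  have hwA := hab x hx y hy
  set w := x * y * x⁻¹ * y⁻¹ with hw
  have hwr : w ^ r = 1 := by
    have h1 : x * y * x⁻¹ = w * y := by rw [hw]; group
    have h2 : (w * y) ^ r = w ^ r * y ^ r := by
      have : Commute w y := core_cen h w hwA y (h.NC hy)
      exact this.mul_pow r
    have h3 : (x * y * x⁻¹) ^ r = y ^ r := by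
      rw [conj_pow]
      have h4 := core_cen h _ (hexp y hy) x (h.NC hx)
      rw [← h4]
      group
    rw [h1, h2] at h3
    exact mul_eq_right.1 h3
  have hord : orderOf w = r := orderOf_eq_prime hwr hxy
  have hcyc : IsCyclic A := isCyclic_of_injective_ringHom (sc h) (sc_inj h)
  have hroots : ∀ z ∈ A, z ^ r = 1 → z ∈ zpowers w := by
    intro z hz hzr
    have : Fintype A := Fintype.ofFinite _
    let S : Finset A := Finset.univ.filter fun u => u ^ r = 1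
    have hS : S.card ≤ r := IsCyclic.card_pow_eq_one_le hr.pos
    let T : Finset A := Finset.univ.filter fun u => u ∈ zpowers (⟨w, hwA⟩ : A)
    have hT : T.card = r := by
      have h1 : Nat.card (zpowers (⟨w, hwA⟩ : A)) = r := by
        rw [Nat.card_zpowers, Subgroup.orderOf_mk, hord]
      rw [← h1, Nat.card_eq_fintype_card, Fintype.card_subtype]
    have hTS : T ⊆ S := by
      intro u hu
      rw [Finset.mem_filter] at hu ⊢
      refine ⟨hu.1, ?_⟩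
      obtain ⟨k, rfl⟩ := mem_zpowers_iff.1 hu.2
      rw [← zpow_natCast, ← zpow_mul, mul_comm, zpow_mul, zpow_natCast]
      have : (⟨w, hwA⟩ : A) ^ r = 1 := Subtype.ext hwr
      rw [this, one_zpow]
    have hST : T = S := Finset.eq_of_subset_of_card_le hTS (by rw [hT]; exact hS)
    have hzS : (⟨z, hz⟩ : A) ∈ S := by
      rw [Finset.mem_filter]
      exact ⟨Finset.mem_univ _, Subtype.ext hzr⟩
    rw [← hST, Finset.mem_filter] at hzS
    obtain ⟨k, hk⟩ := mem_zpowers_iff.1 hzS.2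
    exact mem_zpowers_iff.2 ⟨k, congrArg Subtype.val hk⟩
  refine ⟨r, w, hr, hwA, ⟨h.An, h.Nn, h.AN, h.NC, core_cen h, hab, core_self h, hord, hroots, hexp⟩, ?_⟩
  -- `r ∣ p ^ f - 1`
  have hFfin : Finite F := by
    refine Nat.finite_of_card_ne_zero ?_
    rw [h.cardF]
    exact (pow_pos h.prime.pos f).ne'
  have : Fintype F := Fintype.ofFinite F
  have h1 : (sc h ⟨w, hwA⟩) ≠ 0 := by
    intro h0
    have h2 := sc_spec h ⟨w, hwA⟩
    rw [h0, zero_smul] at h2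
    have h3 : ((ψ ⟨w, h.NC (h.AN hwA)⟩ : GL (Fin a) F) : Matrix (Fin a) (Fin a) F) *
        ((ψ ⟨w, h.NC (h.AN hwA)⟩)⁻¹ : GL (Fin a) F) = 1 := by
      rw [← Units.val_mul, mul_inv_cancel, Units.val_one]
    rw [h2, Matrix.zero_mul] at h3
    have h4 := congrFun (congrFun h3 ⟨0, by have := h.two_le; omega⟩) ⟨0, by have := h.two_le; omega⟩
    simp at h4
  have h2 : (⟨w, hwA⟩ : A) ^ (p ^ f - 1) = 1 := by
    apply sc_inj h
    rw [map_pow, map_one, ← h.cardF, Nat.card_eq_fintype_card]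
    exact FiniteField.pow_card_sub_one_eq_one _ h1
  have h3 := orderOf_dvd_of_pow_eq_one h2
  rwa [Subgroup.orderOf_mk, hord] at h3

/-- `O_r(H / N)` meets `C / N` trivially -/
theorem core_pcore (h : Core A N C p f a ψ) {r n : ℕ} [hr : Fact r.Prime] (hn : 1 ≤ n)
    {φ : N → (Fin n ⊕ Fin n → ZMod r)} {θ : C →* Matrix.symplecticGroup (Fin n) (ZMod r)}
    (h2 : Function.Surjective φ)
    (h3 : ∀ x y : N, φ x = φ y ↔ ((x⁻¹ * y : N) : H) ∈ A)
    (h5 : ∀ (c : C) (x : N), φ ⟨c * x * (c : H)⁻¹, h.Nn.conj_mem x x.2 c⟩ =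
      ((θ c : Matrix.symplecticGroup (Fin n) (ZMod r)) :
        Matrix (Fin n ⊕ Fin n) (Fin n ⊕ Fin n) (ZMod r)).mulVec (φ x))
    (h6 : ∀ c : C, θ c = 1 ↔ (c : H) ∈ N) {c : H} (hc : c ∈ C)
    [hNn : N.Normal] (hcp : (QuotientGroup.mk c : H ⧸ N) ∈ pCore r (H ⧸ N)) : c ∈ N := by
  classical
  have hfin := h.fin
  have hAn := h.An
  have hCn := h.Cn
  let π : H →* H ⧸ N := QuotientGroup.mk' N
  have hpn : (pCore r (H ⧸ N)).Normal := Lib.Cores.pCore_normal r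
  let D : Subgroup H := (pCore r (H ⧸ N)).comap π ⊓ C
  have hDn : D.Normal := inferInstance
  have hDpow : ∀ d ∈ D, ∃ k : ℕ, d ^ r ^ k ∈ N := by
    intro d hd
    obtain ⟨k, hk⟩ := Lib.Cores.pCore_isPGroup (G := H ⧸ N) r ⟨π d, hd.1⟩
    refine ⟨k, ?_⟩
    have h7 : (π d) ^ r ^ k = 1 := congrArg Subtype.val hk
    rw [← map_pow] at h7
    exact (QuotientGroup.eq_one_iff _).1 h7
  -- the fixed points of `D` on `N / A`
  let F0 : Subgroup H :=
    { carrier := {x | x ∈ N ∧ ∀ d ∈ D, (d * x * d⁻¹)⁻¹ * x ∈ A}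
      one_mem' := ⟨one_mem _, fun d _ => by
        have : (d * 1 * d⁻¹)⁻¹ * 1 = 1 := by group
        rw [this]; exact one_mem _⟩
      mul_mem' := by
        rintro x y ⟨hx, hx2⟩ ⟨hy, hy2⟩
        refine ⟨mul_mem hx hy, fun d hd => ?_⟩
        have e : (d * (x * y) * d⁻¹)⁻¹ * (x * y) =
            ((d * y * d⁻¹)⁻¹ * ((d * x * d⁻¹)⁻¹ * x) * (d * y * d⁻¹)⁻¹⁻¹) * ((d * y * d⁻¹)⁻¹ * y) := by group
        rw [e]
        exact mul_mem (h.An.conj_mem _ (hx2 d hd) _) (hy2 d hd)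
      inv_mem' := by
        rintro x ⟨hx, hx2⟩
        refine ⟨inv_mem hx, fun d hd => ?_⟩
        have e : (d * x⁻¹ * d⁻¹)⁻¹ * x⁻¹ = (d * x * d⁻¹) * ((d * x * d⁻¹)⁻¹ * x)⁻¹ * (d * x * d⁻¹)⁻¹ := by group
        rw [e]
        exact h.An.conj_mem _ (inv_mem (hx2 d hd)) _ }
  have hF0n : F0.Normal := ⟨by
    rintro x ⟨hx, hx2⟩ g
    refine ⟨h.Nn.conj_mem x hx g, fun d hd => ?_⟩
    have h7 := h.An.conj_mem _ (hx2 (g⁻¹ * d * g) (by
      have := hDn.conj_mem d hd g⁻¹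
      rwa [inv_inv] at this)) g
    have e : g * ((g⁻¹ * d * g * x * (g⁻¹ * d * g)⁻¹)⁻¹ * x) * g⁻¹ = (d * (g * x * g⁻¹) * d⁻¹)⁻¹ * (g * x * g⁻¹) := by
      group
    rwa [e] at h7⟩
  have hAF0 : A ≤ F0 := fun x hx => ⟨h.AN hx, fun d _ => mul_mem (inv_mem (h.An.conj_mem x hx d)) hx⟩
  rcases h.min F0 hF0n hAF0 (fun x hx => hx.1) with h7 | h7
  · -- a contradiction: `D` has nonzero fixed points
    exfalso
    let E : Subgroup (Matrix.symplecticGroup (Fin n) (ZMod r)) := (D.subgroupOf C).map θ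
    have hE : IsPGroup r E := by
      rintro ⟨_, d, hd, rfl⟩
      obtain ⟨k, hk⟩ := hDpow d hd
      refine ⟨k, Subtype.ext ?_⟩
      show (θ d) ^ r ^ k = 1
      rw [← map_pow, h6]
      exact hk
    let act : MulAction E (Fin n ⊕ Fin n → ZMod r) :=
      { smul := fun M v => ((M : Matrix.symplecticGroup (Fin n) (ZMod r)) :
          Matrix (Fin n ⊕ Fin n) (Fin n ⊕ Fin n) (ZMod r)).mulVec v
        one_smul := fun v => Matrix.one_mulVec v
        mul_smul := fun M M' v => (Matrix.mulVec_mulVec v _ _).symm }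
    have h8 := hE.card_modEq_card_fixedPoints (Fin n ⊕ Fin n → ZMod r)
    have h9 : Nat.card (MulAction.fixedPoints E (Fin n ⊕ Fin n → ZMod r)) = 1 := by
      rw [Nat.card_eq_one_iff_unique]
      have hzero : ∀ v ∈ MulAction.fixedPoints E (Fin n ⊕ Fin n → ZMod r), v = φ 1 := by
        intro v hv
        obtain ⟨x, rfl⟩ := h2 v
        rw [h3, mul_one, coe_inv, inv_mem_iff, ← h7]
        refine ⟨x.2, fun d hd => ?_⟩
        have h10 := hv ⟨θ ⟨d, hd.2⟩, ⟨d, hd.2⟩, hd, rfl⟩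
        have h11 := h5 ⟨d, hd.2⟩ x
        have h12 : φ ⟨d * x * d⁻¹, h.Nn.conj_mem x x.2 d⟩ = φ x := h11.trans h10
        rw [h3] at h12
        exact h12
      refine ⟨⟨fun u v => Subtype.ext ((hzero u u.2).trans (hzero v v.2).symm)⟩, ⟨⟨φ 1, ?_⟩⟩⟩
      rintro ⟨_, d, hd, rfl⟩
      have h11 := h5 d 1
      have h12 : φ ⟨d * ((1 : N) : H) * (d : H)⁻¹, h.Nn.conj_mem _ (1 : N).2 d⟩ = φ 1 := by
        congr 1
        apply Subtype.ext
        show (d : H) * 1 * (d : H)⁻¹ = 1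
        group
      exact h11.symm.trans h12
    rw [h9] at h8
    have h10 : r ∣ Nat.card (Fin n ⊕ Fin n → ZMod r) := by
      rw [Nat.card_fun]
      simp only [Nat.card_zmod]
      apply dvd_pow_self
      simp
      omega
    have h11 : (0 : ℕ) ≡ 1 [MOD r] := ((Nat.modEq_zero_iff_dvd.2 h10).symm).trans h8
    have h12 := (Nat.modEq_iff_dvd' (Nat.zero_le 1)).1 h11
    exact hr.out.one_lt.ne' (Nat.dvd_one.1 (by simpa using h12))
  · -- `D` acts trivially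
    have hcD : c ∈ D := ⟨hcp, hc⟩
    have h8 : θ ⟨c, hc⟩ = 1 := by
      apply Subtype.ext
      apply Matrix.mulVec_injective
      funext v
      obtain ⟨x, rfl⟩ := h2 v
      have h9 := h5 ⟨c, hc⟩ x
      rw [← h9]
      show _ = (1 : Matrix (Fin n ⊕ Fin n) (Fin n ⊕ Fin n) (ZMod r)).mulVec _
      rw [Matrix.one_mulVec, h3]
      have h10 : (x : H) ∈ F0 := by rw [h7]; exact x.2
      exact h10.2 c hcD
    exact (h6 _).1 h8

theorem core_ext (h : Core A N C p f a ψ) (hab : ∀ x ∈ N, ∀ y ∈ N, x * y * x⁻¹ * y⁻¹ ∈ A) :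
    ∃ r n : ℕ, r.Prime ∧ 1 ≤ n ∧ r ∣ p ^ f - 1 ∧ A.relIndex N = r ^ (2 * n) ∧
      ∃ θ : C →* Matrix.symplecticGroup (Fin n) (ZMod r), (∀ c : C, θ c = 1 ↔ (c : H) ∈ N) ∧
        ∀ R : Subgroup H, Two R → PCoreTriv r ((R.subgroupOf C).map θ) := by
  classical
  have hfin := h.fin
  have hNn := h.Nn
  have hAn := h.An
  have hCn := h.Cn
  obtain ⟨r, w, hr, hwA, hd, hrd⟩ := core_dat h hab
  have hrf : Fact r.Prime := ⟨hr⟩
  obtain ⟨n, hidx, φ, θ, h1, h2, h3, h5, h6⟩ := hd.exists_theta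
  have hn : 1 ≤ n := by
    by_contra hn
    have hn0 : n = 0 := by omega
    subst hn0
    rw [mul_zero, pow_zero, Subgroup.relIndex_eq_one] at hidx
    exact h.ne (le_antisymm h.AN hidx)
  have φ_one : φ 1 = 0 := (h3 1).2 (one_mem _)
  have φ_inv : ∀ x, φ x⁻¹ = - φ x := by
    intro x
    rw [eq_neg_iff_add_eq_zero, ← h1, inv_mul_cancel, φ_one]
  have φ_eq : ∀ x y, φ x = φ y ↔ ((x⁻¹ * y : N) : H) ∈ A := by
    intro x y
    rw [← h3, h1, φ_inv]
    constructor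
    · intro e
      rw [e, neg_add_cancel]
    · intro e
      rw [neg_add_eq_zero] at e
      exact e
  refine ⟨r, n, hr, hn, hrd, hidx, θ, h6, ?_⟩
  rintro R ⟨R', hR'n, hRR', hRn⟩ P hP hPr
  rw [eq_bot_iff]
  rintro ⟨_, c, hc, rfl⟩ hcP
  rw [mem_bot]
  apply Subtype.ext
  show θ c = 1
  rw [h6]
  -- the image in `H / N`
  let π : H →* H ⧸ N := QuotientGroup.mk' N
  let S : Subgroup (Matrix.symplecticGroup (Fin n) (ZMod r)) := (R.subgroupOf C).map θ
  let P0 : Subgroup (Matrix.symplecticGroup (Fin n) (ZMod r)) := P.map S.subtype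
  let Pt : Subgroup H := (P0.comap θ ⊓ R.subgroupOf C).map C.subtype
  have hPt : ∀ x, x ∈ Pt ↔ ∃ hx : x ∈ C, θ ⟨x, hx⟩ ∈ P0 ∧ x ∈ R := by
    intro x
    constructor
    · rintro ⟨y, ⟨hy1, hy2⟩, rfl⟩
      exact ⟨y.2, hy1, hy2⟩
    · rintro ⟨hx, h7, h8⟩
      exact ⟨⟨x, hx⟩, ⟨h7, h8⟩, rfl⟩
  have hcore : Pt.map π ≤ pCore r (H ⧸ N) := by
    refine PLocal.SubnormalCore.le_pCore_of_normal_subnormal (K := (R ⊓ C).map π) (Subgroup.map_mono ?_) ?_ ?_ ?_
    · intro x hx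
      obtain ⟨h7, -, h8⟩ := (hPt x).1 hx
      exact ⟨h8, h7⟩
    · refine ⟨?_⟩
      rintro ⟨_, _⟩ ⟨x, hx, rfl⟩ ⟨_, ⟨g, hg, rfl⟩⟩
      show π g * π x * (π g)⁻¹ ∈ Pt.map π
      rw [← map_inv, ← map_mul, ← map_mul]
      refine mem_map_of_mem π ((hPt _).2 ?_)
      obtain ⟨h7, h8, h9⟩ := (hPt x).1 hx
      refine ⟨mul_mem (mul_mem hg.2 h7) (inv_mem hg.2), ?_, mul_mem (mul_mem hg.1 h9) (inv_mem hg.1)⟩
      have e : (⟨g * x * g⁻¹, mul_mem (mul_mem hg.2 h7) (inv_mem hg.2)⟩ : C) = ⟨g, hg.2⟩ * ⟨x, h7⟩ * ⟨g, hg.2⟩⁻¹ := rfl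
      rw [e, map_mul, map_mul, map_inv]
      obtain ⟨q, hq, hq2⟩ := h8
      have h10 := hP.conj_mem q hq ⟨θ ⟨g, hg.2⟩, ⟨g, hg.2⟩, hg.1, rfl⟩
      exact ⟨_, h10, by rw [← hq2]; rfl⟩
    · refine Subgroup.IsSubnormal.step _ ((R' ⊓ C).map π) (Subgroup.map_mono (inf_le_inf_right _ hRR')) ?_ ?_
      · have h7 : ((R' ⊓ C).map π).Normal := Subgroup.Normal.map inferInstance π (QuotientGroup.mk'_surjective N)
        exact h7.isSubnormal
      · refine ⟨?_⟩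
        rintro ⟨_, _⟩ ⟨x, hx, rfl⟩ ⟨_, ⟨g, hg, rfl⟩⟩
        show π g * π x * (π g)⁻¹ ∈ (R ⊓ C).map π
        rw [← map_inv, ← map_mul, ← map_mul]
        exact mem_map_of_mem π (mem_inf.2 ⟨hRn g hg.1 x hx.1, C.mul_mem (C.mul_mem hg.2 hx.2) (C.inv_mem hg.2)⟩)
    · rintro ⟨_, x, hx, rfl⟩
      obtain ⟨h7, h8, h9⟩ := (hPt x).1 hx
      obtain ⟨q, hq, hq2⟩ := h8
      obtain ⟨k, hk⟩ := hPr ⟨q, hq⟩
      refine ⟨k, Subtype.ext ?_⟩
      show (π x) ^ r ^ k = 1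
      rw [← map_pow]
      have h10 : (q : Matrix.symplecticGroup (Fin n) (ZMod r)) ^ r ^ k = 1 := by
        have h11 : q ^ r ^ k = 1 := congrArg Subtype.val hk
        exact congrArg Subtype.val h11
      have h12 : θ (⟨x, h7⟩ ^ r ^ k) = 1 := by
        rw [map_pow, ← hq2]
        exact h10
      exact (QuotientGroup.eq_one_iff _).2 ((h6 _).1 h12)
  refine core_pcore h hn h2 φ_eq h5 h6 c.2 ?_
  apply hcore
  exact mem_map_of_mem π ((hPt _).2 ⟨c.2, ⟨⟨θ c, c, hc, rfl⟩, hcP, rfl⟩, hc⟩)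

end Cfsg.Agent.H580.Kgv
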